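import Cfsg.Agent.H50.RG.Fin
import Cfsg.Agent.H50.RG.Small
import Cfsg.Agent.H383.RG.Count
import Cfsg.Agent.H961.RG.L03
import Cfsg.Agent.H358.RG.WittSp
import Cfsg.Agent.H689.RG.WittH
import Cfsg.Agent.H245.RG.WittQ
import Cfsg.Agent.H755.RG.Sing
import Cfsg.Agent.H84.RG.L10
import Cfsg.Agent.H811.RG.LEleven
import Cfsg.Agent.H127.RG.L13
import Cfsg.Agent.H343.RG.Core
import Cfsg.Agent.H361.RG.Free
import Cfsg.Agent.H38.RG.Gen
import Cfsg.Agent.H969.RG.SpGen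
import Cfsg.Agent.H462.RG.L18
import Cfsg.Agent.H621.RG.L19
import Cfsg.Agent.H270.RG.Num
import Cfsg.Agent.H858.RG.Large

/-!
# S5714: classical groups of large rank, `LargeFix BigCl`

For every `A` and `ε > 0` there is `N` such that in every simple classical group `T` of dimension at least `N` all but
a proportion `ε` of the elements `y` satisfy `∑_{t ∈ ⟨y⟩} Re χ(t) ≤ (log₂ |T|)^(-A) |⟨y⟩| χ(1)` for all irreducible
characters `χ ≠ 1`.
-/

set_option autoImplicit false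

namespace Cfsg.Agent.H50.RG

theorem lSL : LSL :=
  lsl H383.RG.rg_L02 (fun F _ _ e M he hM h => H961.RG.l03 H383.RG.rg_L25 F e M he hM h) l04 l12 H127.RG.l13 H38.RG.l16
    H270.RG.l20

theorem lSp : LSp :=
  lsp H383.RG.rg_L02 (fun F _ _ e M he hM h => H961.RG.l03 H383.RG.rg_L25 F e M he hM h) H358.RG.l05 H755.RG.Sing.l08 l09
    (H811.RG.l11 H84.RG.l10) (H343.RG.l14 H84.RG.l10 H127.RG.l24) (H361.RG.l15_of H84.RG.l10) H969.RG.l17 H270.RG.l20

theorem lSU : LSU :=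
  lsu H383.RG.rg_L02 (fun F _ _ e M he hM h => H961.RG.l03 H383.RG.rg_L25 F e M he hM h) H689.RG.l06 H755.RG.Sing.l08 l09
    (H811.RG.l11 H84.RG.l10) (H343.RG.l14 H84.RG.l10 H127.RG.l24) (H361.RG.l15_of H84.RG.l10) H462.RG.l18 H270.RG.l20

theorem lOm : LOm :=
  lom H383.RG.rg_L02 (fun F _ _ e M he hM h => H961.RG.l03 H383.RG.rg_L25 F e M he hM h) H245.RG.rg_l07 H755.RG.Sing.l08 l09
    (H811.RG.l11 H84.RG.l10) (H343.RG.l14 H84.RG.l10 H127.RG.l24) (H361.RG.l15_of H84.RG.l10) H621.RG.l19 H270.RG.l20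

/-- **Classical groups of large rank** -/
theorem largeFix : H262.Rg.Asm.LargeFix H851.Dg.BigCl := H858.RG.large_fix lSL lSp lSU lOm

end Cfsg.Agent.H50.RG
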